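import Cfsg.Agent.H356.TU.Root
import Cfsg.Agent.H564.TWP.Low

/-!
# Own characteristic of `SU_{n+1}(q)`: the field `low` (helper44, S3442)

* `resign` : the fundamental data with the root elements `z b (ε b * s)`, `ε b = ± 1`;
* `fdE n k` : the data of `SL_{n+1}(k)` with signs, such that `z a (t ^ q) * z b t` is the image of an element of the
  unitary group;
* `cls_SU` : all positive roots are covered, `low_SU` : the field `low` of `Hyp`.
-/

set_option autoImplicit false
set_option linter.unusedSectionVars false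
set_option linter.unusedSimpArgs false

namespace Cfsg.Agent.H44.Cov

open Matrix Cfsg.Agent.H45.UniE Cfsg.Agent.H356.TA Cfsg.Agent.H356.TU Cfsg.Agent.LieClassical.HermBasic
open Cfsg.Agent.TitsThree.KSideA
open Cfsg.Agent.TitsThree Cfsg.Agent.TitsThree.Siegel Cfsg.Agent.TitsThree.SiegelGen
  Cfsg.Agent.TitsThree.WittFrame Cfsg.Agent.TitsThree.WBridge Cfsg.Agent.TitsThree.WittWeyl
  Cfsg.Agent.TitsThree.FrameCN Cfsg.Agent.TitsThree.KSideU Cfsg.Agent.TitsThree.KSideUDesc
open Cfsg.Agent.H564.TWP (Cov pairCls pairCls')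

section resign

variable {ι Φ k G : Type*} [Field k] [Group G]

theorem sgn_mul_cancel {a : k} (h : a * a = 1) (s : k) : a * (a * s) = s := by rw [← mul_assoc, h, one_mul]

/-- group data with signs -/
def resignG (D : GDat ι Φ k G) (ε : Φ → k) (hε : ∀ b, ε b * ε b = 1) : GDat ι Φ k G where
  x i s := D.x i (ε (D.zi i) * s)
  y i s := D.y i (ε (D.zi i) * s)
  z b s := D.z b (ε b * s)
  zi := D.zi
  ht := D.ht
  T := D.T
  δ := D.δ
  hh := D.hh
  τ := D.τ
  ht_pos := D.ht_pos
  x_eq i s := D.x_eq i _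
  z_add b s t := by rw [mul_add, D.z_add]
  y_add i s t := by rw [mul_add, D.y_add]
  δ_mul := D.δ_mul
  δ_mem := D.δ_mem
  hh_mem := D.hh_mem
  δ_z s b a := by rw [D.δ_z, mul_left_comm]
  T_x t ht i := by
    obtain ⟨u, hu⟩ := D.T_x t ht i
    exact ⟨u, fun a => by rw [hu, mul_left_comm]⟩
  T_y t ht i := by
    obtain ⟨u, hu⟩ := D.T_y t ht i
    exact ⟨u, fun a => by rw [hu, mul_left_comm]⟩
  comm i j a s hij := D.comm i j _ _ hij
  rank i a s c hc := by
    have h1 : (c : k) = 1 + (ε (D.zi i) * a) * (ε (D.zi i) * s) := by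
      rw [hc, mul_mul_mul_comm, hε, one_mul]
    have h := D.rank i _ _ c h1
    rw [h, mul_div_assoc, mul_div_assoc]
  gen := by
    rw [eq_top_iff, ← D.gen, Subgroup.closure_le]
    rintro g ⟨i, s, h⟩
    refine Subgroup.subset_closure ⟨i, ε (D.zi i) * s, ?_⟩
    rw [sgn_mul_cancel (hε _)]
    exact h
  cmt i b s := by
    obtain ⟨l, h1, h2⟩ := D.cmt i b (ε (D.zi i) * s)
    refine ⟨l.map fun a => (a.1, ε a.1 * a.2.1 * ε b ^ a.2.2, a.2.2), ?_, fun t => ?_⟩
    · intro a ha
      obtain ⟨a', ha', rfl⟩ := List.mem_map.1 ha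
      exact h1 a' ha'
    · have h3 := h2 (ε b * t)
      rw [mul_neg, h3, List.map_map]
      congr 1
      refine List.map_congr_left fun a _ => ?_
      show D.z a.1 (a.2.1 * (ε b * t) ^ a.2.2) = D.z a.1 (ε a.1 * (ε a.1 * a.2.1 * ε b ^ a.2.2 * t ^ a.2.2))
      congr 1
      rw [mul_pow, mul_assoc (ε a.1 * a.2.1), mul_assoc (ε a.1), sgn_mul_cancel (hε _)]
  τ_mul := D.τ_mul
  τ_τ := D.τ_τ
  τ_x i s := D.τ_x i _
  τ_T := D.τ_T

/-- fundamental data with signs -/
noncomputable def resign [DecidableEq ι] (D : FDat ι Φ k G) (ε : Φ → k) (hε : ∀ b, ε b * ε b = 1) : FDat ι Φ k G where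
  toGDat := resignG D.toGDat ε hε
  Δ := D.Δ
  wt := D.wt
  N := D.N
  M := D.M
  Δ_one := D.Δ_one
  Δ_z i b g s := D.Δ_z i b g _
  Δ_T := D.Δ_T
  Δ_hh := D.Δ_hh
  Δ_δ := D.Δ_δ
  Δ_τ := D.Δ_τ
  pol_z i b g h := by
    obtain ⟨P, hP, h1⟩ := D.pol_z i b g h
    refine ⟨P.comp (Polynomial.C (ε b) * Polynomial.X), ?_, fun s => ?_⟩
    · refine Polynomial.natDegree_comp_le.trans ?_
      refine (Nat.mul_le_mul_left _ (Polynomial.natDegree_C_mul_le _ _)).trans ?_
      rw [Polynomial.natDegree_X, mul_one]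
      exact hP
    · have h2 := h1 (ε b * s)
      rw [Polynomial.eval_comp, Polynomial.eval_mul, Polynomial.eval_C, Polynomial.eval_X, ← h2]
      rfl
  pol_δ := D.pol_δ

theorem resignG_U (D : GDat ι Φ k G) (ε : Φ → k) (hε : ∀ b, ε b * ε b = 1) : (resignG D ε hε).U = D.U := by
  show Subgroup.closure {g | ∃ b s, g = D.z b (ε b * s)} = Subgroup.closure {g | ∃ b s, g = D.z b s}
  congr 1
  ext g
  constructor
  · rintro ⟨b, s, rfl⟩
    exact ⟨b, _, rfl⟩
  · rintro ⟨b, s, rfl⟩
    exact ⟨b, ε b * s, by rw [sgn_mul_cancel (hε b)]⟩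

theorem resignG_Um (D : GDat ι Φ k G) (ε : Φ → k) (hε : ∀ b, ε b * ε b = 1) : (resignG D ε hε).Um = D.Um := by
  show Subgroup.closure {g | ∃ b s, g = D.τ (D.z b (ε b * s))} = Subgroup.closure {g | ∃ b s, g = D.τ (D.z b s)}
  congr 1
  ext g
  constructor
  · rintro ⟨b, s, rfl⟩
    exact ⟨b, _, rfl⟩
  · rintro ⟨b, s, rfl⟩
    exact ⟨b, ε b * s, by rw [sgn_mul_cancel (hε b)]⟩

end resign

section

variable (n : ℕ) (k : Type*) [Field k]

/-- the signs -/
def eps (b : Pos n) : k := if (b.1.1 : ℕ) + b.1.2 ≤ n then 1 else -1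

theorem eps_sq (b : Pos n) : eps n k b * eps n k b = 1 := by
  unfold eps
  split_ifs
  · rw [one_mul]
  · rw [neg_mul_neg, one_mul]

/-- **the data of `SL_{n+1}(k)` with signs** -/
noncomputable def fdE : FDat (Fin n) (Pos n) k (SpecialLinearGroup (Fin (n + 1)) k) := resign (fdA n k) (eps n k) (eps_sq n k)

theorem fdE_U : (fdE n k).toGDat.U = (fdA n k).toGDat.U := resignG_U (fdA n k).toGDat (eps n k) (eps_sq n k)

theorem fdE_Um : (fdE n k).toGDat.Um = (fdA n k).toGDat.Um := resignG_Um (fdA n k).toGDat (eps n k) (eps_sq n k)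

theorem fdE_z (b : Pos n) (s : k) : (fdE n k).z b s = tv b.1.1 b.1.2 (eps n k b * s) := rfl

theorem fdE_Δ : (fdE n k).Δ = (fdA n k).Δ := rfl

theorem fdE_T : (fdE n k).T = (fdA n k).T := rfl

theorem fdE_τ : (fdE n k).τ = (fdA n k).τ := rfl

theorem fdE_ht (b : Pos n) : (fdE n k).ht b = 2 * ((b.1.2 : ℕ) - (b.1.1 : ℕ)) := rfl

end

section cls

variable {F k : Type*} [Field F] [Fintype F] [Field k] [Algebra F k] {n q : ℕ}

/-- the `q` elements of trace zero -/
theorem exists_skew (hF : Fintype.card F = q ^ 2) :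
    ∃ A : Finset k, q ≤ A.card ∧ ∀ s ∈ A, ∃ c : F, c + c ^ q = 0 ∧ s = algebraMap F k c := by
  classical
  obtain ⟨x0, hx0, hx⟩ := exists_trace_zero_ne hF
  refine ⟨(Finset.univ.filter fun x : F => x ^ q = x).image fun x => algebraMap F k (x * x0), ?_, ?_⟩
  · rw [Finset.card_image_of_injective]
    · have h := card_fixed hF
      rw [Nat.card_eq_fintype_card, Fintype.card_subtype] at h
      exact h.ge
    · intro a b hab
      exact mul_right_cancel₀ hx0 ((algebraMap F k).injective hab)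
  · intro s hs
    obtain ⟨x, hx1, rfl⟩ := Finset.mem_image.1 hs
    have hx2 : x ^ q = x := (Finset.mem_filter.1 hx1).2
    exact ⟨x * x0, by rw [mul_pow, hx2, ← mul_add, hx, mul_zero], rfl⟩

theorem exists_pos {x : Fin (n + 1)} (h : x ≠ x.rev) : ∃ a, x = pos n a := (pos_or x).resolve_right h

theorem bcA_mX {a b : Fin ((n + 1) / 2) × Bool} (hab : a.1 ≠ b.1) (t : F) :
    bcA n F k (mX q a b t) = tv (pos n a) (pos n b).rev (algebraMap F k t) *
      tv (pos n b) (pos n a).rev (-(algebraMap F k t) ^ q) := by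
  unfold mX
  rw [map_mul, bcA_tv (pos_ne_rev a b hab), bcA_tv (pos_ne_rev b a hab.symm), map_neg, map_pow]

theorem bcA_mZ (hn : Even n) (a : Fin ((n + 1) / 2) × Bool) (w c : F) :
    bcA n F k (mZ q a w c) = tv (mi n) (pos n a).rev (algebraMap F k w) *
      tv (pos n a) (mi n) (-(algebraMap F k w) ^ q) * tv (pos n a) (pos n a).rev (algebraMap F k c) := by
  unfold mZ
  rw [map_mul, map_mul, bcA_tv (pos_rev_ne_mid hn a).symm, bcA_tv (pos_ne_mid hn a), bcA_tv (pos_ne_self_rev a),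
    map_neg, map_pow]

theorem bcA_mZ_zero (hF : Fintype.card F = q ^ 2) (a : Fin ((n + 1) / 2) × Bool) (c : F) :
    bcA n F k (mZ q a 0 c) = tv (pos n a) (pos n a).rev (algebraMap F k c) := by
  unfold mZ
  rw [tv_zero, one_mul, zero_pow_q hF, neg_zero, tv_zero, one_mul, bcA_tv (pos_ne_self_rev a)]

/-- **all positive roots are covered** -/
theorem cls_SU (hF : Fintype.card F = q ^ 2) {P : Subgroup (SpecialLinearGroup (Fin (n + 1)) k)}
    (hX : ∀ (a b : Fin ((n + 1) / 2) × Bool) (t : F), a.1 ≠ b.1 → pos n a < (pos n b).rev →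
      bcA n F k (mX q a b t) ∈ P)
    (hZ : ∀ (a : Fin ((n + 1) / 2) × Bool) (w c : F), pos n a < (pos n a).rev → c + c ^ q = -(w * w ^ q) →
      (¬ Even n → w = 0) → bcA n F k (mZ q a w c) ∈ P) (b : Pos n) : Cov (fdE n k).toGDat F P q b := by
  have hq : 1 < q := two_le hF
  obtain ⟨⟨x, y⟩, hxy⟩ := b
  have hxy' : x < y := hxy
  have hxv : (x : ℕ) < y := hxy'
  have hrev : ∀ z : Fin (n + 1), ((z.rev : Fin (n + 1)) : ℕ) = n - z := fun z => by rw [Fin.val_rev]; omega
  by_cases h1 : (x : ℕ) + y = n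
  · -- a single root
    left
    have hyx : y = x.rev := Fin.ext (by rw [hrev]; omega)
    obtain ⟨a, ha⟩ := exists_pos (n := n) (x := x) (by rw [← hyx]; exact hxy'.ne)
    obtain ⟨A, hA, hA'⟩ := exists_skew (k := k) hF
    refine ⟨A, hA, fun s hs => ?_⟩
    obtain ⟨c, hc, rfl⟩ := hA' s hs
    have h2 := hZ a 0 c (by rw [← ha, ← hyx]; exact hxy') (by rw [hc, zero_mul, neg_zero]) (fun _ => rfl)
    rw [bcA_mZ_zero hF, ← ha, ← hyx] at h2
    rw [fdE_z]
    unfold eps
    rw [if_pos (show (x : ℕ) + y ≤ n from h1.le), one_mul]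
    exact h2
  · right
    by_cases hm : Even n ∧ (x = mi n ∨ y = mi n)
    · -- the middle index
      obtain ⟨hn, hm⟩ := hm
      have hmv : ((mi n : Fin (n + 1)) : ℕ) = n / 2 := rfl
      obtain ⟨c0, hc0⟩ := hn
      have hn : Even n := ⟨c0, hc0⟩
      -- the position `a' < mi`
      obtain ⟨x', hx', hroot⟩ : ∃ x' : Fin (n + 1), (x' : ℕ) < n / 2 ∧
          ((x = x' ∧ y = mi n) ∨ (x = mi n ∧ y = x'.rev)) := by
        rcases hm with h | h
        · have h2 : (x : ℕ) = n / 2 := congrArg Fin.val h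
          exact ⟨y.rev, by rw [hrev]; omega, Or.inr ⟨h, (Fin.rev_rev y).symm⟩⟩
        · have h2 : (y : ℕ) = n / 2 := congrArg Fin.val h
          exact ⟨x, by omega, Or.inl ⟨rfl, h⟩⟩
      obtain ⟨a, ha⟩ := exists_pos (n := n) (x := x') (fun h => by
        have h2 := congrArg Fin.val h
        rw [hrev] at h2
        omega)
      have l1 : x' < mi n := by rw [Fin.lt_def]; omega
      have l2 : mi n < x'.rev := by rw [Fin.lt_def, hrev]; omega
      let β : Pos n := ⟨(x', mi n), l1⟩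
      let β' : Pos n := ⟨(mi n, x'.rev), l2⟩
      let γ : Pos n := ⟨(x', x'.rev), l1.trans l2⟩
      obtain ⟨κ, hκ⟩ := exists_trace_eq hF (c := (-1 : F)) (by rw [neg_pow_q hF, one_pow])
      have e1 : eps n k β = 1 := if_pos (by show (x' : ℕ) + n / 2 ≤ n; omega)
      have e2 : eps n k β' = -1 := if_neg (by show ¬ (n / 2 + (x'.rev : ℕ) ≤ n); rw [hrev]; omega)
      have e3 : eps n k γ = 1 := if_pos (by show (x' : ℕ) + (x'.rev : ℕ) ≤ n; rw [hrev]; omega)
      have t1 : (fdE n k).ht β' = (fdE n k).ht β := by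
        rw [fdE_ht, fdE_ht]
        show 2 * ((x'.rev : ℕ) - n / 2) = 2 * (n / 2 - x')
        rw [hrev]
        omega
      have t2 : (fdE n k).ht γ = (fdE n k).ht β' + (fdE n k).ht β := by
        rw [fdE_ht, fdE_ht, fdE_ht]
        show 2 * ((x'.rev : ℕ) - x') = 2 * ((x'.rev : ℕ) - n / 2) + 2 * (n / 2 - x')
        rw [hrev]
        omega
      have hword : ∀ t : F, (fdE n k).z β' (algebraMap F k t ^ q) * (fdE n k).z β (algebraMap F k t) *
          (fdE n k).z γ (algebraMap F k κ * algebraMap F k t ^ q * algebraMap F k t) ∈ P := by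
        intro t
        have e4 : (-(t ^ q)) ^ q = -t := by rw [neg_pow_q hF, pow_q_pow_q hF]
        have h2 := hZ a (-(t ^ q)) (κ * t ^ q * t) (by rw [← ha]; exact l1.trans l2) (by
          rw [e4, mul_pow, mul_pow, pow_q_pow_q hF]
          have : κ * t ^ q * t + κ ^ q * t * t ^ q = (κ + κ ^ q) * (t ^ q * t) := by ring
          rw [this, hκ]
          ring) (fun h => absurd hn h)
        rw [bcA_mZ hn, ← ha, ← map_pow, e4] at h2
        rw [fdE_z, fdE_z, fdE_z, e1, e2, e3, one_mul, one_mul]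
        show tv (mi n) x'.rev (-1 * algebraMap F k t ^ q) * tv x' (mi n) (algebraMap F k t) *
          tv x' x'.rev (algebraMap F k κ * algebraMap F k t ^ q * algebraMap F k t) ∈ P
        rw [map_neg, map_neg, map_pow, _root_.neg_neg, map_mul, map_mul, map_pow] at h2
        rw [neg_one_mul]
        exact h2
      refine ⟨pairCls' (fdE n k).toGDat (Fq := F) (P := P) (q := q) hq t1 t2 (algebraMap F k κ) hword, ?_⟩
      rcases hroot with ⟨r1, r2⟩ | ⟨r1, r2⟩
      · right
        exact Subtype.ext (Prod.ext r1 r2)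
      · left
        exact Subtype.ext (Prod.ext r1 r2)
    · -- a pair of roots
      -- none of the indices is fixed
      have hx0 : x ≠ x.rev := by
        intro h
        have h2 := congrArg Fin.val h
        rw [hrev] at h2
        exact hm ⟨⟨x, by omega⟩, Or.inl (eq_mid h)⟩
      have hy0 : y ≠ y.rev := by
        intro h
        have h2 := congrArg Fin.val h
        rw [hrev] at h2
        exact hm ⟨⟨y, by omega⟩, Or.inr (eq_mid h)⟩
      -- the root with `x' + y' < n`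
      obtain ⟨x', y', hlt, hsum, hx', hy', hroot⟩ : ∃ x' y' : Fin (n + 1), x' < y' ∧ (x' : ℕ) + y' < n ∧ x' ≠ x'.rev ∧
          y' ≠ y'.rev ∧ ((x = x' ∧ y = y') ∨ (x = y'.rev ∧ y = x'.rev)) := by
        rcases lt_or_ge ((x : ℕ) + y) n with h | h
        · exact ⟨x, y, hxy', h, hx0, hy0, Or.inl ⟨rfl, rfl⟩⟩
        · refine ⟨y.rev, x.rev, Fin.rev_lt_rev.2 hxy', by rw [hrev, hrev]; omega, ?_, ?_,
            Or.inr ⟨(Fin.rev_rev x).symm, (Fin.rev_rev y).symm⟩⟩
          · rw [Fin.rev_rev]; exact hy0.symm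
          · rw [Fin.rev_rev]; exact hx0.symm
      obtain ⟨a, ha⟩ := exists_pos hx'
      obtain ⟨b, hb⟩ := exists_pos (n := n) (x := y'.rev) (by rw [Fin.rev_rev]; exact hy'.symm)
      have hb' : y' = (pos n b).rev := by rw [← hb, Fin.rev_rev]
      have hab : a.1 ≠ b.1 := by
        intro h
        have h2 : b = a ∨ b = neg a := by
          obtain ⟨i, s⟩ := a
          obtain ⟨j, t⟩ := b
          have h : i = j := h
          subst h
          cases s <;> cases t
          · exact Or.inl rfl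
          · exact Or.inr rfl
          · exact Or.inr rfl
          · exact Or.inl rfl
        rcases h2 with h2 | h2
        · rw [h2, ← ha] at hb
          have h3 := congrArg Fin.val hb
          rw [hrev] at h3
          omega
        · rw [h2, pos_neg, ← ha] at hb
          exact hlt.ne (Fin.rev_injective hb).symm
      have l2 : y'.rev < x'.rev := Fin.rev_lt_rev.2 hlt
      let β : Pos n := ⟨(x', y'), hlt⟩
      let β' : Pos n := ⟨(y'.rev, x'.rev), l2⟩
      have hy'n : (y' : ℕ) ≤ n := by omega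
      have hltv : (x' : ℕ) < y' := hlt
      have e1 : eps n k β = 1 := if_pos hsum.le
      have e2 : eps n k β' = -1 := if_neg (by show ¬ ((y'.rev : ℕ) + (x'.rev : ℕ) ≤ n); rw [hrev, hrev]; omega)
      have t1 : (fdE n k).ht β = (fdE n k).ht β' := by
        rw [fdE_ht, fdE_ht]
        show 2 * ((y' : ℕ) - x') = 2 * ((x'.rev : ℕ) - (y'.rev : ℕ))
        rw [hrev, hrev]
        omega
      have hword : ∀ t : F, (fdE n k).z β (algebraMap F k t ^ q) * (fdE n k).z β' (algebraMap F k t) ∈ P := by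
        intro t
        have h2 := hX a b (t ^ q) hab (by rw [← ha, ← hb']; exact hlt)
        rw [bcA_mX hab, ← ha, ← hb', ← hb, ← map_pow, pow_q_pow_q hF, map_pow] at h2
        rw [fdE_z, fdE_z, e1, e2, one_mul, neg_one_mul]
        exact h2
      refine ⟨pairCls (fdE n k).toGDat (Fq := F) (P := P) (q := q) hq t1 hword, ?_⟩
      rcases hroot with ⟨r1, r2⟩ | ⟨r1, r2⟩
      · left
        exact Subtype.ext (Prod.ext r1 r2)
      · right
        exact Subtype.ext (Prod.ext r1 r2)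

/-- **the field `low` of `Hyp`** -/
theorem low_SU [Infinite k] (hF : Fintype.card F = q ^ 2) {P : Subgroup (SpecialLinearGroup (Fin (n + 1)) k)}
    (hX : ∀ (a b : Fin ((n + 1) / 2) × Bool) (t : F), a.1 ≠ b.1 → pos n a < (pos n b).rev →
      bcA n F k (mX q a b t) ∈ P)
    (hZ : ∀ (a : Fin ((n + 1) / 2) × Bool) (w c : F), pos n a < (pos n a).rev → c + c ^ q = -(w * w ^ q) →
      (¬ Even n → w = 0) → bcA n F k (mZ q a w c) ∈ P)
    (hq : ∀ _ : Pos n, 0 < q) (l : Fin n → ℕ) (hl : ∀ i, l i < (fun _ : Pos n => q) ((fdE n k).zi i)) :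
    ∀ f ∈ (Cfsg.Agent.H564.TW.datQ (fdE n k) (fun _ => q) l hl hq
        (Cfsg.Agent.H564.TWP.cmq_const (fdE n k).toGDat q)).L,
      (∀ u ∈ P, ∀ g, f (g * u) = f g) →
      ∀ m, (∀ m' < m, (Cfsg.Agent.H564.TW.datQ (fdE n k) (fun _ => q) l hl hq
        (Cfsg.Agent.H564.TWP.cmq_const (fdE n k).toGDat q)).H m' f = 0) →
      (Cfsg.Agent.H564.TW.datQ (fdE n k) (fun _ => q) l hl hq
        (Cfsg.Agent.H564.TWP.cmq_const (fdE n k).toGDat q)).H m f ∈
        (Cfsg.Agent.H564.TW.datQ (fdE n k) (fun _ => q) l hl hq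
          (Cfsg.Agent.H564.TWP.cmq_const (fdE n k).toGDat q)).K :=
  Cfsg.Agent.H564.TWP.low_const (fdE n k) (by rw [hF, sq]) (cls_SU hF hX hZ) hq l hl

end cls

end Cfsg.Agent.H44.Cov
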